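import Cfsg.Agent.H689.EB.RowHS
import Cfsg.Agent.H689.EB.RowSuz
import Cfsg.Agent.H689.EB.RowJTwo

/-!
# TEAM EB: `EvenJ` for `J₂`, `HS`, `Suz` (helper689)
-/

set_option autoImplicit false

namespace Cfsg.Agent.H689.EB

open Cfsg Cfsg.Agent.H684.EB

universe u

/-- If the square of every automorphism is inner, `EvenB` implies `EvenJ`. -/
theorem evenJ_of_sq {T : Type*} [Group T] (hsq : ∀ α : MulAut T, ∃ t : T, ∀ x : T, α (α x) = t * x * t⁻¹)
    {S : Type u} [Group S] (e : T ≃* S) (hS : EvenB S) : EvenJ S := by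
  refine evenJ_of_inner (fun α => ?_) hS
  obtain ⟨t, ht⟩ := hsq ((e.trans α).trans e.symm)
  refine ⟨1, e t, fun x => ?_⟩
  have h1 := congrArg e (ht (e.symm x))
  have h2 : e (((e.trans α).trans e.symm) (((e.trans α).trans e.symm) (e.symm x))) = α (α x) := by
    simp
  rw [h2] at h1
  rw [pow_one, pow_two, MulAut.mul_apply, h1]
  simp

open Cfsg.Agent.HN.Pres Cfsg.Agent.HN.HS100 Cfsg.Agent.HN.AutBound Cfsg.Agent.HN.AutHS in
theorem HS.sq_inner (α : MulAut Q) : ∃ t : Q, ∀ x : Q, α (α x) = t * x * t⁻¹ := by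
  obtain ⟨p, hp, h⟩ := exists_perm α
  have hpp : p * p ∈ Q := by
    rw [mem_Q_iff]
    refine ⟨mul_mem hp hp, ?_⟩
    rw [map_mul]
    exact Int.units_mul_self _
  refine ⟨⟨p * p, hpp⟩, fun x => Subtype.ext ?_⟩
  rw [h, h]
  show p * (p * x * p⁻¹) * p⁻¹ = p * p * x * (p * p)⁻¹
  group

/-- **`EvenJ HS`** -/
theorem HS.rowJ {S : Type u} [Group S] (h : Cfsg.Spor.IsoHS S) : EvenJ S := by
  obtain ⟨e⟩ := h
  obtain ⟨f⟩ := Cfsg.Agent.HN.AutHS.nonempty_Q.1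
  exact evenJ_of_sq HS.sq_inner (f.trans e.symm) (HS.row ⟨e⟩)

theorem Suz.sq_inner (α : MulAut Cfsg.Spor.Suz) : ∃ t : Cfsg.Spor.Suz, ∀ x, α (α x) = t * x * t⁻¹ := by
  rcases Cfsg.Agent.KFacts.SuzOut.out_two α⁻¹ α with h | h | h
  · obtain ⟨n, hn⟩ := h
    refine ⟨n⁻¹ * n⁻¹, fun x => ?_⟩
    have h1 : α = MulAut.conj n⁻¹ := by rw [map_inv, hn, inv_inv]
    rw [h1, MulAut.conj_apply, MulAut.conj_apply]
    simp only [mul_inv_rev, inv_inv, mul_assoc]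
  · obtain ⟨n, hn⟩ := h
    refine ⟨n * n, fun x => ?_⟩
    rw [← hn, MulAut.conj_apply, MulAut.conj_apply]
    group
  · obtain ⟨n, hn⟩ := h
    rw [inv_inv] at hn
    refine ⟨n, fun x => ?_⟩
    rw [← MulAut.mul_apply, ← hn, MulAut.conj_apply]

/-- **`EvenJ Suz`** -/
theorem Suz.rowJ {S : Type u} [Group S] (h : Cfsg.Spor.IsoSuz S) : EvenJ S := by
  obtain ⟨e⟩ := h
  exact evenJ_of_sq Suz.sq_inner e.symm (Suz.row ⟨e⟩)

open Equiv Cfsg.Agent.SporadicA.J2Hundred Cfsg.Agent.OddHalf.Table Cfsg.Agent.OddHalf.Table.OutJ2 in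
theorem JTwo.sq_inner (α : MulAut G) : ∃ t : G, ∀ x : G, α (α x) = t * x * t⁻¹ := by
  by_cases hα : ∃ n, α = MulAut.conj n
  · obtain ⟨n, rfl⟩ := hα
    refine ⟨n * n, fun x => ?_⟩
    rw [MulAut.conj_apply, MulAut.conj_apply]
    group
  push Not at hα
  have hfin : Finite G := inferInstance
  obtain ⟨n, hn⟩ := CycNorm.mul_inv_inner_of (p := 7) (m := 3) (N := 3) (by norm_num) (x := (⟨x, x_mem⟩ : G))
    (f := ⟨f, f_mem⟩) (y := ⟨y, y_mem⟩) (by rw [Subgroup.orderOf_mk]; exact order_x) (by rw [card_G]; norm_num)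
    (by
      rintro ⟨c, hc⟩ h
      obtain ⟨i, hi⟩ := cent_x hc (congrArg Subtype.val h)
      exact ⟨i, Subtype.ext hi⟩)
    (Subtype.ext fx) (by decide) (by decide) (by rw [Subgroup.orderOf_mk]; exact order_f) (Subtype.ext y2)
    (Subtype.ext yf) (fun i h => y_ne_pow i (congrArg Subtype.val h))
    (by
      rintro ⟨c, hc⟩ h
      obtain ⟨i, hi | hi⟩ := cent_f hc (congrArg Subtype.val h)
      · exact ⟨i, Or.inl (Subtype.ext hi)⟩
      · exact ⟨i, Or.inr (Subtype.ext hi)⟩)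
    closure_eq (a := α⁻¹) (b := α) (by
      intro u hu
      apply hα u⁻¹
      rw [map_inv, ← hu, inv_inv]) hα
  rw [inv_inv] at hn
  exact ⟨n, fun x => by rw [← MulAut.mul_apply, hn, MulAut.conj_apply]⟩

/-- **`EvenJ J₂`** -/
theorem JTwo.rowJ {S : Type u} [Group S] (h : Cfsg.Spor.IsoJ2 S) : EvenJ S := by
  obtain ⟨e⟩ := h
  obtain ⟨f⟩ := Cfsg.Agent.J2.HundredGens.J2_iso Cfsg.Agent.S1619.result.2.2.2
  exact evenJ_of_sq JTwo.sq_inner (e.trans f).symm (JTwo.row ⟨e⟩)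

end Cfsg.Agent.H689.EB
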